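import Cfsg.Agent.S4319
import Cfsg.Agent.H56.Exc.Full

/-!
# `CycFixSolv` (helper74)
-/

set_option autoImplicit false

namespace Cfsg.Agent.H74.CycFix

open Cfsg.Agent.H56.Exc

universe u

/-- coprime automorphisms of prime order with cyclic fixed points force solvability -/
theorem cycFixSolv : CycFixSolv.{u} := by
  intro G _ _ f s hs hf hcop ⟨C, hC, hfix⟩
  have hfin : Finite (MulAut G) := by
    refine Finite.of_injective (fun φ : MulAut G => (φ : G → G)) ?_
    intro a b h
    exact MulEquiv.ext fun x => congrFun h x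
  refine Cfsg.Agent.S4319.result (A := ↥(Subgroup.zpowers f)) (G := G) ?_ (Or.inl ?_)
  · have h1 : Nat.card ↥(Subgroup.zpowers f) ∣ s := by
      rw [Nat.card_zpowers]
      exact orderOf_dvd_of_pow_eq_one hf
    exact Nat.Coprime.coprime_dvd_right h1 ((Nat.Prime.coprime_iff_not_dvd hs).2 hcop).symm
  · have hle : FixedPoints.subgroup (↥(Subgroup.zpowers f)) G ≤ C := by
      intro x hx
      apply hfix
      exact hx ⟨f, Subgroup.mem_zpowers f⟩
    have : IsCyclic ↥(FixedPoints.subgroup (↥(Subgroup.zpowers f)) G) :=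
      isCyclic_of_injective (Subgroup.inclusion hle) (Subgroup.inclusion_injective hle)
    let _ := IsCyclic.commGroup (α := ↥(FixedPoints.subgroup (↥(Subgroup.zpowers f)) G))
    infer_instance

end Cfsg.Agent.H74.CycFix
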